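import Mathlib

/-!
A 0-1 circulant of prime size with a power in the span of the identity and the all-one matrix
is constant off one point.
-/

set_option autoImplicit false

namespace CfsgLib.SchreierPrime

open Polynomial

variable {p : ℕ} [hpf : Fact p.Prime] {K : Type*} [Field K] [CharZero K]

/-- The character `j ↦ ω ^ j` on `ZMod p`. -/
def chr (ω : K) (j : ZMod p) : K := ω ^ j.val

theorem chr_add {ω : K} (hω : IsPrimitiveRoot ω p) (i j : ZMod p) :
    chr ω (i + j) = chr ω i * chr ω j := by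
  unfold chr
  rw [← pow_add, ZMod.val_add, ← pow_eq_pow_mod _ hω.pow_eq_one]

theorem chr_mul {ω : K} (hω : IsPrimitiveRoot ω p) (t j : ZMod p) :
    chr ω (t * j) = (ω ^ t.val) ^ j.val := by
  unfold chr
  rw [← pow_mul, ZMod.val_mul, ← pow_eq_pow_mod _ hω.pow_eq_one]

theorem sum_chr {ω : K} (hω : IsPrimitiveRoot ω p) : ∑ j : ZMod p, chr ω j = 0 := by
  have h1 : chr ω (1 : ZMod p) ≠ 1 := by
    haveI : Fact (1 < p) := ⟨hpf.out.one_lt⟩
    simp only [chr, ZMod.val_one, pow_one]
    exact hω.ne_one hpf.out.one_lt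
  have h2 : chr ω (1 : ZMod p) * ∑ j : ZMod p, chr ω j = ∑ j : ZMod p, chr ω j := by
    rw [Finset.mul_sum]
    exact Fintype.sum_equiv (Equiv.addLeft (1 : ZMod p)) _ _ fun j => (chr_add hω 1 j).symm
  by_contra h
  exact h1 (mul_right_cancel₀ h (h2.trans (one_mul _).symm))

theorem const_of_sum_chr_eq_zero {ω : K} (hω : IsPrimitiveRoot ω p) (g : ZMod p → ℚ)
    (h : ∑ j, (g j : K) * chr ω j = 0) : ∀ i j, g i = g j := by
  haveI : Fact (1 < p) := ⟨hpf.out.one_lt⟩
  set b := g (-1 : ZMod p)
  have h' : ∑ j, ((g j - b : ℚ) : K) * chr ω j = 0 := by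
    simp only [Rat.cast_sub, sub_mul, Finset.sum_sub_distrib, h, ← Finset.mul_sum, sum_chr hω,
      mul_zero, sub_zero]
  set Q : ℚ[X] := ∑ j : ZMod p, monomial j.val (g j - b) with hQ
  have hev : aeval ω Q = 0 := by
    rw [← h', hQ, map_sum]
    refine Finset.sum_congr rfl fun j _ => ?_
    rw [aeval_monomial]
    simp [chr]
  have hdeg : Q.natDegree ≤ p - 2 := by
    rw [hQ]
    refine natDegree_sum_le_of_forall_le _ _ fun j _ => ?_
    rcases eq_or_ne j (-1) with rfl | hj
    · simp [b]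
    · refine (natDegree_monomial_le _).trans ?_
      have h1 := ZMod.val_lt j
      have h2 : j.val ≠ p - 1 := by
        intro e
        apply hj
        rw [← ZMod.natCast_zmod_val j, e, Nat.cast_sub hpf.out.one_le]
        simp
      omega
  have hQ0 : Q = 0 := by
    by_contra hne
    have h1 := natDegree_le_of_dvd (minpoly.dvd ℚ ω hev) hne
    rw [← cyclotomic_eq_minpoly_rat hω hpf.out.pos, natDegree_cyclotomic,
      Nat.totient_prime hpf.out] at h1
    have := hpf.out.two_le
    omega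
  have hz : ∀ j, g j = b := by
    intro j
    have hc : Q.coeff j.val = g j - b := by
      rw [hQ, finset_sum_coeff, Finset.sum_eq_single j]
      · simp [coeff_monomial]
      · intro i _ hi
        rw [coeff_monomial, if_neg fun e => hi (ZMod.val_injective p e)]
      · simp
    rw [hQ0, coeff_zero] at hc
    linarith
  intro i j
  rw [hz i, hz j]

/-- A circulant with `0,1` entries having a power with constant first column off the diagonal is
constant off one point. -/
theorem circulant_pow (f : ZMod p → ℤ) (h01 : ∀ j, f j = 0 ∨ f j = 1)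
    (h1 : ∃ j, f j = 1) (h0 : ∃ j, f j = 0) (m : ℕ) (hm : 0 < m)
    (hW : ∀ i : ZMod p, i ≠ 0 →
      ((Matrix.of fun i j => f (i - j)) ^ m) i 0 = ((Matrix.of fun i j => f (i - j)) ^ m) 1 0) :
    ∃ u b, ∀ j, j ≠ u → f j = b := by
  classical
  rcases eq_or_ne p 2 with rfl | hp2
  · refine ⟨0, f 1, fun j hj => ?_⟩
    fin_cases j
    · exact absurd rfl hj
    · rfl
  haveI : NeZero p := ⟨hpf.out.ne_zero⟩
  haveI : NeZero ((p : ℕ) : ℚ) := ⟨Nat.cast_ne_zero.2 hpf.out.ne_zero⟩
  haveI : IsCyclotomicExtension {p} ℚ (CyclotomicField p ℚ) := CyclotomicField.isCyclotomicExtension p ℚ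
  set ω : CyclotomicField p ℚ := IsCyclotomicExtension.zeta p ℚ (CyclotomicField p ℚ)
  have hω : IsPrimitiveRoot ω p := IsCyclotomicExtension.zeta_spec p ℚ (CyclotomicField p ℚ)
  set a : (CyclotomicField p ℚ) := ∑ j, (f j : (CyclotomicField p ℚ)) * chr ω j with ha
  set M : Matrix (ZMod p) (ZMod p) ℤ := Matrix.of fun i j => f (i - j) with hM
  have hpow : ∀ n : ℕ, ∑ i, (((M ^ n) i 0 : ℤ) : (CyclotomicField p ℚ)) * chr ω i = a ^ n := by
    intro n
    induction n with
    | zero => simp [Matrix.one_apply, chr]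
    | succ n ih =>
      have hmul : ∀ i, (M ^ (n + 1)) i 0 = ∑ l, f (i - l) * (M ^ n) l 0 := by
        intro i
        rw [pow_succ', Matrix.mul_apply]
        rfl
      simp only [hmul, Int.cast_sum, Int.cast_mul, Finset.sum_mul]
      rw [Finset.sum_comm, pow_succ', ← ih, Finset.mul_sum]
      refine Finset.sum_congr rfl fun l _ => ?_
      rw [ha, Finset.sum_mul]
      refine Fintype.sum_equiv (Equiv.subRight l) _ _ fun i => ?_
      simp only [Equiv.subRight_apply]
      have : chr ω i = chr ω (i - l) * chr ω l := by rw [← chr_add hω, sub_add_cancel]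
      rw [this]
      ring
  -- the power is rational
  set α : ℤ := (M ^ m) 1 0
  set β : ℤ := (M ^ m) 0 0
  have ham : a ^ m = ((β - α : ℤ) : (CyclotomicField p ℚ)) := by
    rw [← hpow m]
    have e : ∀ i : ZMod p, (((M ^ m) i 0 : ℤ) : (CyclotomicField p ℚ)) * chr ω i
        = (α : (CyclotomicField p ℚ)) * chr ω i + if i = 0 then ((β - α : ℤ) : (CyclotomicField p ℚ)) else 0 := by
      intro i
      split_ifs with hi
      · subst hi
        simp only [chr, ZMod.val_zero, pow_zero, mul_one, β]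
        push_cast
        ring
      · rw [hW i hi]
        simp [α]
    rw [Finset.sum_congr rfl fun i _ => e i, Finset.sum_add_distrib, ← Finset.mul_sum, sum_chr hω]
    simp
  -- basic facts on the sum
  have hk1 : 0 < ∑ j, f j := by
    obtain ⟨j, hj⟩ := h1
    refine Finset.sum_pos' (fun i _ => ?_) ⟨j, Finset.mem_univ _, by omega⟩
    rcases h01 i with e | e <;> omega
  have hk2 : ∑ j, f j < p := by
    obtain ⟨j, hj⟩ := h0
    calc ∑ j, f j < ∑ _j : ZMod p, (1 : ℤ) := by
          refine Finset.sum_lt_sum (fun i _ => ?_) ⟨j, Finset.mem_univ _, by omega⟩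
          rcases h01 i with e | e <;> omega
      _ = p := by simp
  have ha0 : a ≠ 0 := by
    intro e
    have := const_of_sum_chr_eq_zero hω (fun j => (f j : ℚ)) (by simpa [ha] using e)
    obtain ⟨i, hi⟩ := h1
    obtain ⟨j, hj⟩ := h0
    have h2 := this i j
    simp [hi, hj] at h2
  -- a generator of the units
  obtain ⟨t, ht⟩ := IsCyclic.exists_generator (α := (ZMod p)ˣ)
  have ht1 : (t : ZMod p) ≠ 1 := by
    intro e
    haveI : Fact (2 < p) := ⟨by have := hpf.out.two_le; omega⟩
    have ht' : t = 1 := Units.ext e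
    have h2 := ht (-1)
    rw [ht', Subgroup.zpowers_one_eq_bot, Subgroup.mem_bot] at h2
    exact ZMod.neg_one_ne_one (by simpa using congrArg Units.val h2)
  -- conjugate
  set a' : (CyclotomicField p ℚ) := ∑ j, (f j : (CyclotomicField p ℚ)) * chr ω ((t : ZMod p) * j) with ha'
  set F : ℚ[X] := ∑ j : ZMod p, monomial j.val (f j : ℚ) with hF
  have hFω : aeval ω F = a := by
    rw [hF, map_sum, ha]
    exact Finset.sum_congr rfl fun j _ => by rw [aeval_monomial]; simp [chr]
  have hFt : aeval (ω ^ (t : ZMod p).val) F = a' := by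
    rw [hF, map_sum, ha']
    exact Finset.sum_congr rfl fun j _ => by rw [aeval_monomial, chr_mul hω]; simp
  have hωt : IsPrimitiveRoot (ω ^ (t : ZMod p).val) p :=
    hω.pow_of_coprime _ (ZMod.val_coe_unit_coprime t)
  have ham' : a' ^ m = ((β - α : ℤ) : (CyclotomicField p ℚ)) := by
    have h2 : minpoly ℚ (ω ^ (t : ZMod p).val) ∣ F ^ m - C ((β - α : ℤ) : ℚ) := by
      rw [← cyclotomic_eq_minpoly_rat hωt hpf.out.pos, cyclotomic_eq_minpoly_rat hω hpf.out.pos]
      apply minpoly.dvd
      rw [map_sub, map_pow, hFω, ham, aeval_C]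
      simp
    obtain ⟨R, hR⟩ := h2
    have h3 := congrArg (aeval (ω ^ (t : ZMod p).val)) hR
    rw [map_mul, minpoly.aeval, zero_mul, map_sub, map_pow, hFt, aeval_C, sub_eq_zero] at h3
    rw [h3]
    simp
  have hz : IsOfFinOrder (a' / a) := by
    rw [isOfFinOrder_iff_pow_eq_one]
    exact ⟨m, hm, by rw [div_pow, ham', ← ham, div_self (pow_ne_zero _ ha0)]⟩
  obtain ⟨r, hr, hsign⟩ := hω.exists_pow_or_neg_mul_pow_of_isOfFinOrder
    (hpf.out.odd_of_ne_two hp2) hz
  have hchr : ω ^ r = chr ω (r : ZMod p) := by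
    unfold chr
    rw [ZMod.val_natCast, Nat.mod_eq_of_lt hr]
  -- reindexing
  have hsum1 : a' = ∑ j, (f ((↑t⁻¹ : ZMod p) * j) : (CyclotomicField p ℚ)) * chr ω j := by
    rw [ha']
    refine Fintype.sum_equiv (Units.mulLeft t) _ _ fun j => ?_
    simp only [Units.mulLeft_apply, Units.inv_mul_cancel_left]
  have hsum2 : ω ^ r * a = ∑ j, (f (j - r) : (CyclotomicField p ℚ)) * chr ω j := by
    rw [hchr, ha, Finset.mul_sum]
    refine Fintype.sum_equiv (Equiv.addRight (r : ZMod p)) _ _ fun j => ?_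
    simp only [Equiv.coe_addRight, add_sub_cancel_right, chr_add hω]
    ring
  have hS1 : ∑ j, f ((↑t⁻¹ : ZMod p) * j) = ∑ j, f j :=
    Fintype.sum_equiv (Units.mulLeft t⁻¹) _ _ fun _ => rfl
  have hS2 : ∑ j, f (j - r) = ∑ j, f j :=
    Fintype.sum_equiv (Equiv.subRight (r : ZMod p)) _ _ fun _ => rfl
  rcases hsign with e | e
  · rw [div_eq_iff ha0, hsum1, hsum2, ← sub_eq_zero, ← Finset.sum_sub_distrib] at e
    have hc := const_of_sum_chr_eq_zero hω
      (fun j => ((f ((↑t⁻¹ : ZMod p) * j) - f (j - r) : ℤ) : ℚ)) (by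
        rw [← e]
        exact Finset.sum_congr rfl fun j _ => by push_cast; ring)
    have hd : ∀ j, f ((↑t⁻¹ : ZMod p) * j) = f (j - r) := by
      intro j
      have h2 : ∑ i, (f ((↑t⁻¹ : ZMod p) * i) - f (i - r))
          = ∑ _i : ZMod p, (f ((↑t⁻¹ : ZMod p) * j) - f (j - r)) :=
        Finset.sum_congr rfl fun i _ => by exact_mod_cast hc i j
      rw [Finset.sum_sub_distrib, hS1, hS2, sub_self, Finset.sum_const, Finset.card_univ,
        ZMod.card, nsmul_eq_mul] at h2
      rcases mul_eq_zero.1 h2.symm with h3 | h3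
      · exact absurd (by exact_mod_cast h3) hpf.out.ne_zero
      · omega
    have ht0 : (t : ZMod p) - 1 ≠ 0 := sub_ne_zero.2 ht1
    set u : ZMod p := r / ((t : ZMod p) - 1) with hu
    have hfix : (t : ZMod p) * u - r = u := by
      rw [hu]; field_simp; ring
    have hstep : ∀ v, f (u + (t : ZMod p) * v) = f (u + v) := by
      intro v
      have h2 := hd ((t : ZMod p) * (u + v))
      rw [Units.inv_mul_cancel_left, mul_add, add_sub_right_comm, hfix] at h2
      exact h2.symm
    refine ⟨u, f (u + 1), fun j hj => ?_⟩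
    obtain ⟨n, hn⟩ := mem_powers_iff_mem_zpowers.2 (ht (Units.mk0 (j - u) (sub_ne_zero.2 hj)))
    have hn' : (t : ZMod p) ^ n = j - u := by simpa using congrArg Units.val hn
    have hind : ∀ n : ℕ, f (u + (t : ZMod p) ^ n) = f (u + 1) := by
      intro n
      induction n with
      | zero => simp
      | succ n ih => rw [pow_succ', hstep, ih]
    rw [← hind n, hn', add_sub_cancel]
  · rw [div_eq_iff ha0, neg_mul, hsum1, hsum2, eq_neg_iff_add_eq_zero,
      ← Finset.sum_add_distrib] at e
    have hc := const_of_sum_chr_eq_zero hω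
      (fun j => ((f ((↑t⁻¹ : ZMod p) * j) + f (j - r) : ℤ) : ℚ)) (by
        rw [← e]
        exact Finset.sum_congr rfl fun j _ => by push_cast; ring)
    have h2 : ∑ i, (f ((↑t⁻¹ : ZMod p) * i) + f (i - r))
          = ∑ _i : ZMod p, (f ((↑t⁻¹ : ZMod p) * 0) + f (0 - r)) :=
      Finset.sum_congr rfl fun i _ => by exact_mod_cast hc i 0
    rw [Finset.sum_add_distrib, hS1, hS2, Finset.sum_const, Finset.card_univ, ZMod.card,
      nsmul_eq_mul, ← two_mul] at h2
    have h3 : (p : ℤ) ∣ 2 * ∑ j, f j := ⟨_, h2⟩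
    have hpi : Prime (p : ℤ) := Nat.prime_iff_prime_int.1 hpf.out
    rcases hpi.dvd_or_dvd h3 with h4 | h4
    · have := Int.le_of_dvd (by norm_num) h4
      have := hpf.out.two_le
      omega
    · have := Int.le_of_dvd hk1 h4
      omega

end CfsgLib.SchreierPrime
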