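import Mathlib
import Cfsg.Agent.SchreierPrime.Circulant
import Cfsg.Agent.PrimeDegree.Burnside

/-!
The Schreier conjecture for simple groups with a subgroup of prime index: two automorphisms
agree modulo inner automorphisms if they agree on a Sylow subgroup of order `p`.
-/

set_option autoImplicit false

namespace CfsgLib.SchreierPrime

variable {G : Type*} [Group G] [Finite G] {p : ℕ} [hpf : Fact p.Prime]

/-- In a two-transitive group with a regular element `d` of prime order, an automorphism fixing
`d` is conjugation by a power of `d`. -/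
theorem eq_conj_pow {Ω : Type*} [MulAction G Ω] [FaithfulSMul G Ω] (o : Ω) (d : G)
    (hd : d ^ p = 1) (e : ZMod p ≃ Ω) (he : ∀ j, e j = d ^ j.val • o)
    (h2t : MulAction.IsMultiplyPretransitive G Ω 2)
    (hns : ¬ p ∣ Nat.card (MulAction.stabilizer G o))
    (x : MulAut G) (hx : x d = d) : ∃ k : ℕ, x = MulAut.conj (d ^ k) := by
  classical
  haveI : NeZero p := ⟨hpf.out.ne_zero⟩
  have he0 : e 0 = o := by rw [he, ZMod.val_zero, pow_zero, one_smul]
  have hshift : ∀ j l : ZMod p, d ^ j.val • e l = e (l + j) := by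
    intro j l
    rw [he l, he (l + j), smul_smul, ← pow_add, ZMod.val_add, ← pow_eq_pow_mod _ hd,
      Nat.add_comm]
  have hxp : ∀ n : ℕ, x (d ^ n) = d ^ n := fun n => by rw [map_pow, hx]
  let R : Ω → Ω → Prop := fun a b => ∃ g : G, g • o = b ∧ x g • o = a
  have hR : ∀ (k : G) (a b : Ω), R a b → R (x k • a) (k • b) := by
    rintro k a b ⟨g, h1, h2⟩
    exact ⟨k * g, by rw [mul_smul, h1], by rw [map_mul, mul_smul, h2]⟩
  have hR' : ∀ (k : G) (a b : Ω), R (x k • a) (k • b) ↔ R a b := by
    refine fun k a b => ⟨fun h => ?_, hR k a b⟩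
    simpa [map_inv, inv_smul_smul] using hR k⁻¹ _ _ h
  let f : ZMod p → ℤ := fun j => if R (e j) o then 1 else 0
  let M : Matrix (ZMod p) (ZMod p) ℤ := Matrix.of fun i j => f (i - j)
  have hMR : ∀ i j, M i j = if R (e i) (e j) then 1 else 0 := by
    intro i j
    simp only [M, Matrix.of_apply, f]
    have h1 : R (e i) (e j) ↔ R (e (i - j)) o := by
      rw [← hR' (d ^ j.val) (e (i - j)) o, hxp, hshift, ← he, sub_add_cancel]
    simp only [h1]
  let σ : G → Equiv.Perm (ZMod p) := fun k => (e.trans (MulAction.toPerm k)).trans e.symm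
  have hσ : ∀ k i, e (σ k i) = k • e i := fun k i => by simp [σ]
  have hM : ∀ k i j, M (σ (x k) i) (σ k j) = M i j := by
    intro k i j
    simp only [hMR, hσ, hR']
  have hMn : ∀ (n : ℕ) k i j, (M ^ n) (σ ((x ^ n) k) i) (σ k j) = (M ^ n) i j := by
    intro n
    induction n with
    | zero => intro k i j; simp [Matrix.one_apply]
    | succ n ih =>
      intro k i j
      rw [pow_succ' M, Matrix.mul_apply, Matrix.mul_apply]
      refine (Fintype.sum_equiv (σ ((x ^ n) k)) _ _ fun l => ?_).symm
      rw [pow_succ' x, MulAut.mul_apply, hM, ih]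
  have hm : 0 < orderOf x := orderOf_pos x
  have hW : ∀ i : ZMod p, i ≠ 0 → (M ^ orderOf x) i 0 = (M ^ orderOf x) 1 0 := by
    intro i hi
    obtain ⟨g, hg1, hg0⟩ : ∃ g : G, g • e 1 = e i ∧ g • e 0 = e 0 := by
      exact MulAction.is_two_pretransitive_iff.1 h2t (e.injective.ne one_ne_zero)
        (e.injective.ne hi)
    have h := hMn (orderOf x) g 1 0
    rw [pow_orderOf_eq_one, MulAut.one_apply] at h
    have e1 : σ g 1 = i := e.injective (by rw [hσ, hg1])
    have e0 : σ g 0 = 0 := e.injective (by rw [hσ, hg0])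
    rwa [e1, e0] at h
  have h0D : f 0 = 1 := by
    have : R (e 0) o := ⟨1, one_smul _ _, by rw [map_one, one_smul, he0]⟩
    simp only [f, if_pos this]
  have hproper : ∃ j, f j = 0 := by
    by_contra hne
    push Not at hne
    apply hns
    let S := (MulAction.stabilizer G o).map x.toMonoidHom
    have htr : MulAction.IsPretransitive S Ω := by
      refine ⟨fun a b => ?_⟩
      have key : ∀ a : Ω, ∃ s : S, s • o = a := by
        intro a
        obtain ⟨j, rfl⟩ := e.surjective a
        have hj : R (e j) o := by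
          by_contra hc
          exact hne j (by simp only [f, if_neg hc])
        obtain ⟨g, hg, hxg⟩ := hj
        exact ⟨⟨x g, ⟨g, hg, rfl⟩⟩, hxg⟩
      obtain ⟨s, rfl⟩ := key a
      obtain ⟨s', rfl⟩ := key b
      exact ⟨s' * s⁻¹, by rw [mul_smul, inv_smul_smul]⟩
    have h1 := Subgroup.index_dvd_card (MulAction.stabilizer S o)
    rw [MulAction.index_stabilizer_of_transitive, ← Nat.card_congr e, Nat.card_zmod] at h1
    rwa [Subgroup.card_map_of_injective x.injective] at h1
  obtain ⟨u, b, hb⟩ := circulant_pow f (fun j => by simp only [f]; split_ifs <;> simp)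
    ⟨0, h0D⟩ hproper (orderOf x) hm hW
  -- the image of the stabilizer fixes a point
  obtain ⟨u', hu'⟩ : ∃ u', ∀ g, g • o = o → x g • e u' = e u' := by
    rcases eq_or_ne b 1 with rfl | hb1
    · refine ⟨u, fun g hg => ?_⟩
      obtain ⟨z, hz⟩ := hproper
      have hzu : z = u := by
        by_contra hc
        have h := hb z hc
        omega
      subst hzu
      by_contra hc
      obtain ⟨j, hj⟩ := e.surjective (x g • e z)
      have hjz : j ≠ z := by rintro rfl; exact hc hj.symm
      have hjD : R (e j) o := by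
        by_contra hd'
        have h := hb j hjz
        simp only [f, if_neg hd'] at h
        omega
      have hzD : R (e z) o := by
        rw [hj] at hjD
        have h := (hR' g (e z) o).1
        rw [hg] at h
        exact h hjD
      simp only [f, if_pos hzD] at hz
      omega
    · refine ⟨0, fun g hg => ?_⟩
      obtain ⟨j, hj⟩ := e.surjective (x g • o)
      have hjD : R (e j) o := ⟨g, hg, hj.symm⟩
      have hu0 : (0 : ZMod p) = u := by
        by_contra hc
        exact hb1 ((hb 0 hc).symm.trans h0D)
      have hju : j = u := by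
        by_contra hc
        have h := hb j hc
        simp only [f, if_pos hjD] at h
        exact hb1 h.symm
      rw [he0, ← hj, hju, ← hu0, he0]
  refine ⟨u'.val, ?_⟩
  let y : MulAut G := (MulAut.conj (d ^ u'.val))⁻¹ * x
  suffices hy : y = 1 from inv_mul_eq_one.1 hy |>.symm
  have hyd : ∀ n : ℕ, y (d ^ n) = d ^ n := by
    intro n
    simp only [y, MulAut.mul_apply, hxp, MulAut.conj_inv_apply]
    group
  have hyH : ∀ g, g • o = o → y g • o = o := by
    intro g hg
    have h := hu' g hg
    rw [he] at h
    simp only [y, MulAut.mul_apply, MulAut.conj_inv_apply, mul_smul]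
    rw [h, inv_smul_smul]
  have hyo : ∀ g, y g • o = g • o := by
    intro g
    obtain ⟨j, hj⟩ := e.surjective (g • o)
    rw [he] at hj
    have h1 : ((d ^ j.val)⁻¹ * g) • o = o := by rw [mul_smul, ← hj, inv_smul_smul]
    have h2 := hyH _ h1
    rw [map_mul, map_inv, hyd, mul_smul, inv_smul_eq_iff] at h2
    rw [h2, hj]
  refine MulEquiv.ext fun g => FaithfulSMul.eq_of_smul_eq_smul (α := Ω) fun a => ?_
  obtain ⟨j, rfl⟩ := e.surjective a
  rw [he, MulAut.one_apply, smul_smul, smul_smul, ← hyo (g * d ^ j.val), map_mul, hyd]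

end CfsgLib.SchreierPrime
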